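import Cfsg.Agent.E6Tw.Bridge
import Cfsg.Agent.S1066
import Cfsg.Agent.H59.E6twAr
import Cfsg.Agent.LSU.Irr
import Cfsg.Agent.Char.Degree

set_option autoImplicit false

/-!
# The smallest degree of a nontrivial representation of the twisted group of type E6 (helper98)
-/

namespace Cfsg.Agent.E6Tw

open Module Cfsg.Lie Cfsg.Agent.ChevU Cfsg.Agent.E6Min

/-- the lower bound, from the main inequality -/
theorem bound_of {K : Type*} [Field K] [Fintype K] {q : ℕ} (hq : IsPrimePow q) (hK : Fintype.card K = q ^ 2)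
    {n : ℕ} (ρ : Representation ℂ (twistedE6 K q) (Fin n → ℂ)) (hirr : ρ.IsIrreducible) (hn : 2 ≤ n)
    (hmain : ∀ (k : Subfield K) (_ : Fintype k) (A : ActT k K (Fin n → ℂ)) (ψ : AddChar k ℂ), ψ ≠ 0 →
      Fintype.card k = q → (∃ r, r < 72 ∧ fx r = true ∧ ∃ t v, A.TL r t v ≠ v) →
      finrank ℂ (Fin n → ℂ) < q * (q ^ 6 - q ^ 3 + 1) * (q ^ 4 + 1) →
      q * (q ^ 6 - q ^ 3 + 1) * (q ^ 4 + 1) ≤ finrank ℂ (Fin n → ℂ) + 2) :
    q * (q ^ 6 - q ^ 3 + 1) * (q ^ 4 + 1) ≤ n := by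
  classical
  by_contra hcon
  rw [not_le] at hcon
  obtain ⟨k, A, hk, -, -, -, htriv⟩ := exists_actT hq hK ρ
  have hfk : Fintype k := Fintype.ofFinite _
  have hkk : Fintype.card k = q := by rw [← Nat.card_eq_fintype_card, hk]
  obtain ⟨ψ, hψ⟩ : ∃ ψ : AddChar k ℂ, ψ ≠ 0 := by
    have : Nontrivial (AddChar k ℂ) := by
      have h1 : Fintype.card (AddChar k ℂ) = q := by rw [AddChar.card_eq, hkk]
      rw [← Fintype.one_lt_card_iff_nontrivial, h1]
      exact hq.one_lt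
    exact exists_ne 0
  obtain ⟨g, v, hgv⟩ := Cfsg.Agent.LSU.exists_ne_of_irr ρ hirr hn
  have hnt : ∃ r, r < 72 ∧ fx r = true ∧ ∃ t v, A.TL r t v ≠ v := by
    by_contra h
    push Not at h
    exact hgv (htriv (fun r hr hf t v => h r hr hf t v) g v)
  have h1 := hmain k hfk A ψ hψ hkk hnt (by rw [Module.finrank_fin_fun]; exact hcon)
  rw [Module.finrank_fin_fun] at h1
  have hfin : Finite ↥(twistedE6 K q) := inferInstance
  have hdvd := Cfsg.Agent.Char.finrank_dvd_card ρ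
  rw [Module.finrank_fin_fun] at hdvd
  have hdvd2 := (hdvd.trans (dvd_mul_left _ (Nat.gcd 3 (q + 1))))
  rw [Cfsg.Agent.S1066.result hq hK] at hdvd2
  exact Cfsg.Agent.H59.E6twAr.artw (q := q) (D := n) (j := q * (q ^ 6 - q ^ 3 + 1) * (q ^ 4 + 1) - n) hq (by omega)
    (by omega) (by omega) hdvd2

end Cfsg.Agent.E6Tw
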